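import Cfsg.Agent.Lib.Helper71.SUG2.Defs
import Cfsg.Agent.Lib.Helper13.UTransvComm

/-!
# SUG2 (S2412 block [II]) package [II-EX]: the transvection of an isotropic vector lies in `SU_n(2)`.
-/

set_option autoImplicit false
open scoped Matrix

namespace Cfsg.Agent.Lib.Helper42.SUG2

open Cfsg.Agent.Lib.Helper71.SUG2

universe u

/-- [II-EX]. -/
theorem pkgEx : PkgEx.{u} := by
  intro F _ _ hF n v hv
  have h2 : (2 : F) = 0 := f4_two hF
  have hc : (1 : F) ^ 2 = -1 := by
    have : (1 : F) + 1 = 0 := by rw [one_add_one_eq_two]; exact h2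
    linear_combination this
  exact ⟨Cfsg.Agent.Lib.Helper13.suMk (Tmat n F v)
    (Cfsg.Agent.Lib.Helper13.det_utransv v 1 hv)
    (Cfsg.Agent.Lib.Helper13.isHermIso_utransv hF v 1 hv hc), rfl⟩

end Cfsg.Agent.Lib.Helper42.SUG2
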